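import Mathlib

/-!
# Degrees of cyclotomic numbers over subfields of the complex numbers
-/

set_option autoImplicit false

namespace Cfsg.Agent.Lib.CharDeep.Roquette

open Polynomial

theorem totient_le_finrank {F : IntermediateField ℚ ℂ} [FiniteDimensional ℚ F] {ζ : ℂ} {n : ℕ}
    (hn : 0 < n) (hprim : IsPrimitiveRoot ζ n) (hζ : ζ ∈ F) :
    n.totient ≤ Module.finrank ℚ F := by
  have h1 := minpoly.natDegree_le (A := ℚ) (B := F) (⟨ζ, hζ⟩ : F)
  have h2 : minpoly ℚ (⟨ζ, hζ⟩ : F) = minpoly ℚ ζ :=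
    IntermediateField.minpoly_eq (⟨ζ, hζ⟩ : F)
  rw [h2, ← cyclotomic_eq_minpoly_rat hprim hn, natDegree_cyclotomic] at h1
  exact h1

theorem totient_le_two_mul_finrank {F : IntermediateField ℚ ℂ} [FiniteDimensional ℚ F]
    {ζ b c : ℂ} {n : ℕ} (hn : 0 < n) (hprim : IsPrimitiveRoot ζ n) (hb : b ∈ F) (hc : c ∈ F)
    (hq : ζ ^ 2 = b * ζ + c) : n.totient ≤ 2 * Module.finrank ℚ F := by
  let r : Polynomial F := C (⟨b, hb⟩ : F) * X + C (⟨c, hc⟩ : F)
  have hrdeg : r.degree < ((2 : ℕ) : WithBot ℕ) :=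
    lt_of_le_of_lt degree_linear_le (by norm_num)
  let q : Polynomial F := X ^ 2 - r
  have hqm : q.Monic := monic_X_pow_sub hrdeg
  have hqdeg : q.degree = ((2 : ℕ) : WithBot ℕ) := by
    have hX : (X ^ 2 : Polynomial F).degree = ((2 : ℕ) : WithBot ℕ) := degree_X_pow 2
    have h1 : q.degree = (X ^ 2 : Polynomial F).degree :=
      degree_sub_eq_left_of_degree_lt (by rw [hX]; exact hrdeg)
    rw [h1, hX]
  have hroot : aeval ζ q = 0 := by
    simp only [q, r, map_sub, map_pow, aeval_X, map_add, map_mul, aeval_C]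
    rw [hq]
    change b * ζ + c - (b * ζ + c) = 0
    ring
  have hint : IsIntegral F ζ := ⟨q, hqm, hroot⟩
  have hmin : (minpoly F ζ).natDegree ≤ 2 := by
    have h1 := minpoly.min F ζ hqm hroot
    rw [hqdeg] at h1
    exact natDegree_le_of_degree_le h1
  let K : IntermediateField F ℂ := IntermediateField.adjoin F {ζ}
  have hK : Module.finrank F K ≤ 2 := by
    rw [IntermediateField.adjoin.finrank hint]
    exact hmin
  haveI hKfin : FiniteDimensional F K := IntermediateField.adjoin.finiteDimensional hint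
  haveI : FiniteDimensional ℚ K := FiniteDimensional.trans ℚ F K
  have hmem : ζ ∈ K := IntermediateField.mem_adjoin_simple_self F ζ
  have h1 := minpoly.natDegree_le (A := ℚ) (B := K) (⟨ζ, hmem⟩ : K)
  have h2 : minpoly ℚ (⟨ζ, hmem⟩ : K) = minpoly ℚ ζ := by
    have := minpoly.algebraMap_eq (A := ℚ) (B := K) (B' := ℂ) (algebraMap K ℂ).injective
      (⟨ζ, hmem⟩ : K)
    exact this.symm
  rw [h2, ← cyclotomic_eq_minpoly_rat hprim hn, natDegree_cyclotomic] at h1
  have h3 := Module.finrank_mul_finrank ℚ F K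
  calc n.totient ≤ Module.finrank ℚ K := h1
    _ = Module.finrank ℚ F * Module.finrank F K := h3.symm
    _ ≤ Module.finrank ℚ F * 2 := Nat.mul_le_mul_left _ hK
    _ = 2 * Module.finrank ℚ F := mul_comm _ _

end Cfsg.Agent.Lib.CharDeep.Roquette
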