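import Cfsg.Agent.Lib.CharDeep.Roquette.Step
import Cfsg.Agent.Lib.CharDeep.Roquette.Field

/-!
# Roquette's bound for faithful irreducible characters of `p`-groups
-/

set_option autoImplicit false
set_option linter.unusedSectionVars false

namespace Cfsg.Agent.Lib.CharDeep.Roquette

open Subgroup Cfsg Cfsg.Agent.Lib.Char.Basic Cfsg.Agent.Lib.Char.Ortho Cfsg.Agent.Lib.Char.Complete
  Cfsg.Agent.Lib.Char.Linear Cfsg.Agent.Lib.Char.Degree Cfsg.Agent.Lib.Char.Conj
  Cfsg.Agent.Lib.Char.Induced Cfsg.Agent.Lib.Char.Clifford Cfsg.Agent.Lib.Char.CliffordCorr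
open scoped ComplexConjugate

universe u

/-- A group with a faithful linear character is cyclic. -/
theorem isCyclic_of_faithful_deg_one {P : Type u} [Group P] [Finite P] {χ : P → ℂ}
    (hχ : IsCharacter P χ) (h1 : χ 1 = 1) (hfaith : ∀ g, χ g = χ 1 → g = 1) : IsCyclic P := by
  obtain ⟨l, hl⟩ := exists_hom_of_deg_one hχ h1
  have hlv : ∀ a, χ a = (l a : ℂ) := fun a => congrFun hl a
  apply isCyclic_of_subgroup_isDomain ((Units.coeHom ℂ).comp l)
  intro a b hab
  have h2 : ((Units.coeHom ℂ).comp l) a = ((Units.coeHom ℂ).comp l) b := hab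
  have h3 : l a = l b := Units.ext h2
  have h4 : χ (a * b⁻¹) = χ 1 := by
    rw [h1, hlv, map_mul, map_inv, h3, mul_inv_cancel]
    simp
  exact mul_inv_eq_one.mp (hfaith _ h4)

/-- The cyclic case. -/
theorem cyclic_case {P : Type u} [Group P] [Finite P] {p a t : ℕ} (hp : p.Prime)
    (hP : Nat.card P = p ^ a) {χ : P → ℂ} (hχ : IsIrrCharacter P χ)
    (hfaith : ∀ g, χ g = χ 1 → g = 1) (hc : IsCyclic P)
    (hfield : Module.finrank ℚ (Fld χ) = (p - 1) * p ^ t) : χ 1 = 1 ∧ a ≤ t + 1 := by
  have hcomm : ∀ a b : P, a * b = b * a := fun a b => hc.commutative.is_comm.comm a b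
  have h1 : χ 1 = 1 := isIrr_deg_one_of_comm hcomm hχ
  refine ⟨h1, ?_⟩
  obtain ⟨l, hl⟩ := exists_hom_of_deg_one (isCharacter_of_isIrrCharacter hχ) h1
  have hlv : ∀ a, χ a = (l a : ℂ) := fun a => congrFun hl a
  let φ : P →* ℂ := (Units.coeHom ℂ).comp l
  have hφ : ∀ g, φ g = χ g := fun g => (hlv g).symm
  have hinj : Function.Injective φ := by
    intro x y hxy
    have h2 : φ (x * y⁻¹) = 1 := by
      rw [map_mul, map_inv, hxy]
      exact mul_inv_cancel₀ ((Units.coeHom ℂ).comp l y |> fun _ => (l y).ne_zero)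
    rw [hφ, ← h1] at h2
    exact mul_inv_eq_one.mp (hfaith _ h2)
  obtain ⟨g, hg⟩ := hc.exists_generator
  have hord : orderOf g = p ^ a := by
    rw [← hP]
    exact orderOf_eq_card_of_forall_mem_zpowers hg
  have hprim : IsPrimitiveRoot (φ g) (p ^ a) := by
    have h2 := IsPrimitiveRoot.orderOf (φ g)
    rwa [orderOf_injective φ hinj g, hord] at h2
  have hpos : 0 < (p - 1) * p ^ t :=
    Nat.mul_pos (Nat.sub_pos_of_lt hp.one_lt) (pow_pos hp.pos t)
  haveI : FiniteDimensional ℚ (Fld χ) := by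
    apply Module.finite_of_finrank_pos
    rw [hfield]
    exact hpos
  have hmem : φ g ∈ Fld χ := by
    rw [hφ]
    exact mem_Fld χ g
  have h2 := totient_le_finrank (pow_pos hp.pos a) hprim hmem
  rw [hfield] at h2
  obtain _ | b := a
  · omega
  · rw [Nat.totient_prime_pow_succ hp, mul_comm] at h2
    have h3 := Nat.le_of_mul_le_mul_left h2 (Nat.sub_pos_of_lt hp.one_lt)
    have h4 := (Nat.pow_le_pow_iff_right hp.one_lt).mp h3
    omega

/-- The reduction step, in terms of the quotient by the kernel. -/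
theorem reduce_data {P : Type u} [Group P] [Fintype P] {p a : ℕ} [hp : Fact p.Prime]
    (hP : Nat.card P = p ^ a) {χ : P → ℂ} (hχ : IsIrrCharacter P χ)
    (hfaith : ∀ g, χ g = χ 1 → g = 1) (A : Subgroup P) (hAn : A.Normal)
    (hAexp : ∀ a ∈ A, a ^ p = 1) (hAcard : Nat.card A = p ^ 2) :
    ∃ (X : Type u) (_ : Group X) (_ : Fintype X) (φ : X → ℂ) (a' f' : ℕ),
      Nat.card X = p ^ a' ∧ a' < a ∧ a ≤ 1 + p * a' ∧ IsIrrCharacter X φ ∧
      (∀ x, φ x = φ 1 → x = 1) ∧ φ 1 = f' ∧ χ 1 = (p : ℂ) * f' ∧ Fld φ = Fld χ := by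
  classical
  have hpp : p.Prime := hp.out
  obtain ⟨H, instH, θ, hHn, hHindex, hθ, hθind, hθF⟩ :=
    step_data (IsPGroup.of_card hP) hχ hfaith A hAn hAexp hAcard
  have hθc := isCharacter_of_isIrrCharacter hθ
  let L : Subgroup H := charKer hθc
  let π : H →* H ⧸ L := QuotientGroup.mk' L
  have hπs : Function.Surjective π := QuotientGroup.mk'_surjective _
  obtain ⟨φ, hφ, hθφ⟩ := isIrrCharacter_descend π hπs hθ (fun k hk => by
    have hk' : k ∈ L := by
      have := hk
      rwa [QuotientGroup.ker_mk'] at this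
    exact hk')
  have hθφ' : ∀ h : H, θ h = φ (π h) := fun h => congrFun hθφ h
  have hφ1 : φ 1 = θ 1 := by
    rw [hθφ' 1, map_one]
  have hf' := charDegree_natCast hθc
  set f' := charDegree θ with hf'def
  have hχ1 : χ 1 = (p : ℂ) * f' := by
    rw [← hθind, indFun_one, hHindex, hf']
  -- orders
  have hcardH : p * Nat.card H = p ^ a := by
    rw [← hP, ← hHindex]
    exact H.index_mul_card
  obtain ⟨b, rfl⟩ : ∃ b, a = b + 1 := by
    refine ⟨a - 1, ?_⟩
    rcases a with _ | c
    · exfalso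
      simp only [pow_zero] at hcardH
      have := hpp.two_le
      have h2 : 0 < Nat.card H := Nat.card_pos
      nlinarith
    · simp
  have hcardH' : Nat.card H = p ^ b := by
    rw [pow_succ', ] at hcardH
    exact Nat.eq_of_mul_eq_mul_left hpp.pos hcardH
  have hXdvd : Nat.card (H ⧸ L) ∣ p ^ b := by
    rw [← hcardH']
    exact Subgroup.index_dvd_card L
  obtain ⟨a', ha'le, ha'⟩ := (Nat.dvd_prime_pow hpp).mp hXdvd
  -- the core of the kernel is trivial
  have hconjmem : ∀ (k : H), (∀ x : P, ∀ hm : x * k * x⁻¹ ∈ H, (⟨x * k * x⁻¹, hm⟩ : H) ∈ L) →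
      k = 1 := by
    intro k hk
    have h1 : χ k = χ 1 := by
      rw [← hθind, indFun_one, indFun_apply]
      have h2 : ∀ x : P, extendByZero H θ (x⁻¹ * (k : P) * x) = θ 1 := by
        intro x
        have hm : x⁻¹ * (k : P) * x ∈ H := by
          have := hHn.conj_mem _ k.2 x⁻¹
          simpa using this
        rw [extendByZero_of_mem H θ hm]
        have h3 := hk x⁻¹ (by simpa using hm)
        have h4 := (mem_charKer hθc _).mp h3
        simpa using h4
      simp only [h2, Finset.sum_const, Finset.card_univ, nsmul_eq_mul]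
      have h5 : (Nat.card P : ℂ) = (H.index : ℂ) * (Nat.card H : ℂ) := by
        rw [← Nat.cast_mul, H.index_mul_card]
      rw [← Nat.card_eq_fintype_card, h5]
      have h6 : (Nat.card H : ℂ) ≠ 0 := Nat.cast_ne_zero.mpr Nat.card_pos.ne'
      field_simp
    have h2 := hfaith _ h1
    exact Subtype.ext h2
  letI instι : Fintype (P ⧸ H) := Fintype.ofFinite _
  have hcardι : Fintype.card (P ⧸ H) = p := by
    rw [← Nat.card_eq_fintype_card]
    exact hHindex
  let F : P ⧸ H → Subgroup H := fun c =>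
    L.comap ((MulAut.conjNormal (c.out : P) : MulAut H) : H ≃* H).toMonoidHom
  have hFindex : ∀ c, (F c).index = Nat.card (H ⧸ L) := by
    intro c
    exact Subgroup.index_comap_of_surjective L (MulEquiv.surjective _)
  have hinf : (⨅ c, F c) = ⊥ := by
    rw [eq_bot_iff]
    intro k hk
    rw [Subgroup.mem_iInf] at hk
    rw [Subgroup.mem_bot]
    apply hconjmem
    intro x hm
    -- write `x` via the coset representative
    set c : P ⧸ H := (x : P ⧸ H) with hc
    obtain ⟨h, hh⟩ := QuotientGroup.mk_out_eq_mul H x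
    have hkc : (⟨c.out * k * (c.out)⁻¹, hHn.conj_mem _ k.2 _⟩ : H) ∈ L := hk c
    have hw : (x : P) * (c.out)⁻¹ ∈ H := by
      rw [hc, hh]
      have := H.inv_mem h.2
      have h2 := hHn.conj_mem _ this x
      simpa [mul_assoc] using h2
    have h3 : (⟨x * k * x⁻¹, hm⟩ : H) =
        (⟨x * (c.out)⁻¹, hw⟩ : H) * ⟨c.out * k * (c.out)⁻¹, hHn.conj_mem _ k.2 _⟩ *
          (⟨x * (c.out)⁻¹, hw⟩ : H)⁻¹ := by
      apply Subtype.ext
      simp only [Subgroup.coe_mul, Subgroup.coe_inv]
      group
    rw [h3]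
    exact (charKer_normal hθc).conj_mem _ hkc _
  have hbound : Nat.card H ≤ (Nat.card (H ⧸ L)) ^ p := by
    have h1 := Subgroup.index_iInf_le F
    rw [hinf, Subgroup.index_bot] at h1
    simp only [hFindex, Finset.prod_const, Finset.card_univ, hcardι] at h1
    exact h1
  rw [hcardH', ha', ← pow_mul] at hbound
  have hb : b ≤ a' * p := (Nat.pow_le_pow_iff_right hpp.one_lt).mp hbound
  have hfld : Fld φ = Fld χ := by
    apply le_antisymm
    · apply IntermediateField.adjoin_le_iff.mpr
      rintro _ ⟨x, rfl⟩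
      obtain ⟨h, rfl⟩ := hπs x
      rw [← hθφ']
      exact hθF h
    · apply IntermediateField.adjoin_le_iff.mpr
      rintro _ ⟨g, rfl⟩
      rw [← hθind, indFun_apply]
      apply mul_mem
      · exact inv_mem (natCast_mem _ _)
      · apply sum_mem
        intro x _
        by_cases hm : x⁻¹ * g * x ∈ H
        · rw [extendByZero_of_mem H θ hm, hθφ']
          exact mem_Fld φ _
        · rw [extendByZero_of_not_mem H θ hm]
          exact zero_mem _
  letI instX : Fintype (H ⧸ L) := Fintype.ofFinite _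
  refine ⟨H ⧸ L, inferInstance, instX, φ, a', f', ha', by omega, ?_, hφ, ?_, ?_, hχ1, hfld⟩
  · rw [mul_comm]
    omega
  · intro x hx
    obtain ⟨h, rfl⟩ := hπs x
    rw [← hθφ', hφ1] at hx
    have h2 : h ∈ L := hx
    have h3 : π h = 1 := by
      rw [← QuotientGroup.ker_mk' L] at h2
      exact h2
    exact h3
  · rw [hφ1, hf']

/-- The case of dihedral, semidihedral and generalized quaternion groups. -/
theorem semi_case {P : Type u} [Group P] [Fintype P] {n t : ℕ} {χ : P → ℂ}
    (hχ : IsIrrCharacter P χ) (hfaith : ∀ g, χ g = χ 1 → g = 1) {a y : P} (hn : 2 ≤ n)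
    (ha : orderOf a = 2 ^ n) (hidx : (zpowers a).index = 2) (hy : y ∉ zpowers a)
    (hc : y * a * y⁻¹ = a⁻¹ ∨ y * a * y⁻¹ = a ^ (2 ^ (n - 1) - 1))
    (hfield : Module.finrank ℚ (Fld χ) = 2 ^ t) : n ≤ t + 2 := by
  classical
  have hχ0 := irr_one_ne_zero hχ
  have hχc := isCharacter_of_isIrrCharacter hχ
  have hcl := isClassFunction_of_isCharacter hχc
  obtain ⟨m, ρ, hρ, hρχ⟩ := hχ
  haveI := hρ
  subst hρχ
  let A := zpowers a
  have hAn : A.Normal := Subgroup.normal_of_index_eq_two hidx
  have hAc : ∀ x ∈ A, ∀ w ∈ A, x * w = w * x := by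
    intro x hx w hw
    obtain ⟨i, rfl⟩ := mem_zpowers_iff.mp hx
    obtain ⟨j, rfl⟩ := mem_zpowers_iff.mp hw
    exact zpow_mul_comm a i j
  have haA : a ∈ A := mem_zpowers a
  set b := y * a * y⁻¹ with hbdef
  have hbA : b ∈ A := hAn.conj_mem a haA y
  have hyy : y * y ∈ A := (Subgroup.mul_mem_iff_of_index_two hidx).mpr (iff_of_false hy hy)
  have hcomm1 : ∀ g ∈ A, g * a = a * g ∧ g * b = b * g := fun g hg =>
    ⟨hAc g hg a haA, hAc g hg b hbA⟩
  have hcomm2 : ∀ g, g ∉ A → g * a = b * g ∧ g * b = a * g := by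
    intro g hg
    have hc' : g * y⁻¹ ∈ A := (Subgroup.mul_mem_iff_of_index_two hidx).mpr
      (iff_of_false hg (fun h => hy (by simpa using A.inv_mem h)))
    set c := g * y⁻¹ with hcdef
    have hg' : g = c * y := by rw [hcdef]; group
    constructor
    · have h1 := hAc c hc' b hbA
      calc g * a = (c * b) * y := by rw [hg', hbdef]; group
        _ = (b * c) * y := by rw [h1]
        _ = b * g := by rw [hg']; group
    · have h1 : c * (y * y) * a = a * (c * (y * y)) := hAc _ (A.mul_mem hc' hyy) a haA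
      calc g * b = (c * (y * y) * a) * y⁻¹ := by rw [hg', hbdef]; group
        _ = (a * (c * (y * y))) * y⁻¹ := by rw [h1]
        _ = a * g := by rw [hg']; group
  let T : Module.End ℂ (Fin m → ℂ) := ρ a + ρ b
  have hT : ∀ g v, T (ρ g v) = ρ g (T v) := by
    intro g v
    have h1 : ∀ x w : P, ρ x (ρ w v) = ρ (x * w) v := by
      intro x w
      rw [map_mul, Module.End.mul_apply]
    simp only [T, LinearMap.add_apply, map_add, h1]
    by_cases hg : g ∈ A
    · rw [(hcomm1 g hg).1, (hcomm1 g hg).2]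
    · rw [(hcomm2 g hg).1, (hcomm2 g hg).2, add_comm]
  obtain ⟨ω, hω⟩ := Cfsg.Agent.Lib.Char.Central.schur_scalar ρ T hT
  have htrace : ∀ (g : P) (c : ℂ), ρ g = c • (1 : Module.End ℂ (Fin m → ℂ)) →
      ρ.character g = c * ρ.character 1 := by
    intro g c h
    simp only [Representation.character, map_one, h, map_smul, smul_eq_mul]
  have hχ1 : ρ.character 1 ≠ 0 := hχ0
  have hbχ : ρ.character b = ρ.character a := hcl a y
  have hωF : ω ∈ Fld ρ.character := by
    have h1 : ρ.character a + ρ.character b = ω * ρ.character 1 := by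
      have h2 := congrArg (LinearMap.trace ℂ (Fin m → ℂ)) hω
      simp only [T, map_add, map_smul, map_one, smul_eq_mul] at h2
      simpa [Representation.character] using h2
    have h2 : ω = (ρ.character a + ρ.character b) / ρ.character 1 := by
      rw [h1]
      field_simp
    rw [h2]
    exact div_mem (add_mem (mem_Fld _ _) (mem_Fld _ _)) (mem_Fld _ _)
  -- the central involution
  set N := 2 ^ (n - 1) with hN
  have hN2 : 2 * N = 2 ^ n := by
    rw [hN, ← pow_succ']
    congr 1
    omega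
  have hNeven : 2 ∣ N := by
    rw [hN]
    exact dvd_pow_self 2 (by omega)
  set z := a ^ N with hz
  have hzA : z ∈ A := A.pow_mem haA N
  have hz2 : z ^ 2 = 1 := by
    rw [hz, ← pow_mul, mul_comm, hN2, ← ha, pow_orderOf_eq_one]
  have hzinv : z⁻¹ = z := by
    rw [inv_eq_iff_mul_eq_one, ← pow_two, hz2]
  have hz1 : z ≠ 1 := by
    apply pow_ne_one_of_lt_orderOf (by rw [hN]; positivity)
    rw [ha, ← hN2]
    have : 0 < N := by rw [hN]; positivity
    omega
  have hbN : b ^ N = z := by
    rcases hc with h | h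
    · rw [h, inv_pow, hzinv]
    · rw [h, ← pow_mul, mul_comm, pow_mul]
      obtain ⟨k, hk⟩ := hNeven
      have hN0 : 0 < N := by rw [hN]; positivity
      have h1 : N - 1 = 2 * (k - 1) + 1 := by omega
      change z ^ (N - 1) = z
      rw [h1, pow_succ, pow_mul, hz2, one_pow, one_mul]
  have hzc : z ∈ center P := by
    rw [Subgroup.mem_center_iff]
    intro g
    by_cases hg : g ∈ A
    · exact hAc g hg z hzA
    · have h1 := (hcomm2 g hg).1
      have h2 : ∀ k : ℕ, g * a ^ k = b ^ k * g := by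
        intro k
        induction k with
        | zero => simp
        | succ k ih =>
          calc g * a ^ (k + 1) = (g * a ^ k) * a := by rw [pow_succ, mul_assoc]
            _ = b ^ k * (g * a) := by rw [ih, mul_assoc]
            _ = b ^ k * (b * g) := by rw [h1]
            _ = b ^ (k + 1) * g := by
              rw [pow_succ]
              exact (mul_assoc _ _ _).symm
      rw [hz, h2, ← hz, hbN]
  obtain ⟨ν, hν⟩ := Cfsg.Agent.Lib.Char.Central.center_acts_scalar ρ z hzc
  have hνF : ν ∈ Fld ρ.character := by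
    have h1 := htrace z ν hν
    have h2 : ν = ρ.character z / ρ.character 1 := by
      rw [h1]
      field_simp
    rw [h2]
    exact div_mem (mem_Fld _ _) (mem_Fld _ _)
  have hν1 : ν ≠ 1 := by
    intro h
    have h1 := htrace z ν hν
    rw [h, one_mul] at h1
    exact hz1 (hfaith z h1)
  -- the product `a * b`
  obtain ⟨κ, hκ, hκF⟩ : ∃ κ : ℂ, ρ (a * b) = κ • (1 : Module.End ℂ (Fin m → ℂ)) ∧
      κ ∈ Fld ρ.character := by
    rcases hc with h | h
    · refine ⟨1, ?_, one_mem _⟩
      rw [h, mul_inv_cancel, map_one, one_smul]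
    · refine ⟨ν, ?_, hνF⟩
      have h1 : a * b = z := by
        have hN0 : 0 < N := by rw [hN]; positivity
        rw [h, ← pow_succ', hz]
        congr 1
        omega
      rw [h1, hν]
  -- an eigenvalue
  haveI : Nontrivial (Fin m → ℂ) := Cfsg.Agent.Lib.Char.Central.nontrivial_of_irreducible ρ
  obtain ⟨ζ, hζ⟩ := Module.End.exists_eigenvalue (ρ a)
  obtain ⟨v, hv⟩ := hζ.exists_hasEigenvector
  have hva : ρ a v = ζ • v := hv.apply_eq_smul
  have hv0 : v ≠ 0 := hv.2
  have hpow : ∀ k : ℕ, ρ (a ^ k) v = ζ ^ k • v := by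
    intro k
    rw [map_pow]
    exact hv.pow_apply k
  have hζN : ζ ^ N = ν := by
    have h1 := hpow N
    rw [← hz, hν] at h1
    simp only [LinearMap.smul_apply, Module.End.one_apply] at h1
    exact (smul_left_injective ℂ hv0 h1).symm
  have hζ2n : ζ ^ (2 ^ n) = 1 := by
    have h1 := hpow (2 ^ n)
    rw [← ha, pow_orderOf_eq_one, map_one] at h1
    simp only [Module.End.one_apply] at h1
    rw [ha] at h1
    have h2 : (1 : ℂ) • v = ζ ^ 2 ^ n • v := by
      rw [one_smul]
      exact h1
    exact (smul_left_injective ℂ hv0 h2).symm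
  have hquad : ζ ^ 2 = ω * ζ + (-κ) := by
    have h1 := congrArg (fun w => ρ a w) (show T v = ω • v by rw [hω]; simp)
    simp only [T, LinearMap.add_apply, map_add, map_smul, hva] at h1
    have h2 : ρ a (ρ b v) = κ • v := by
      have h3 := congrArg (fun F : Module.End ℂ (Fin m → ℂ) => F v) hκ
      simpa [map_mul] using h3
    rw [h2, smul_smul] at h1
    have h3 : (ζ * ζ + κ) • v = (ω * ζ) • v := by
      rw [add_smul, mul_smul ω ζ]
      exact h1
    have h4 := smul_left_injective ℂ hv0 h3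
    linear_combination h4
  obtain ⟨s, rfl⟩ : ∃ s, n = s + 1 := ⟨n - 1, by omega⟩
  have hord : orderOf ζ = 2 ^ (s + 1) := by
    haveI : Fact (Nat.Prime 2) := ⟨Nat.prime_two⟩
    apply orderOf_eq_prime_pow
    · have h1 : N = 2 ^ s := by rw [hN]; simp
      rw [← h1, hζN]
      exact hν1
    · exact hζ2n
  have hprim : IsPrimitiveRoot ζ (2 ^ (s + 1)) := hord ▸ IsPrimitiveRoot.orderOf ζ
  haveI : FiniteDimensional ℚ (Fld ρ.character) := by
    apply Module.finite_of_finrank_pos
    rw [hfield]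
    positivity
  have h5 := totient_le_two_mul_finrank (by positivity) hprim hωF (neg_mem hκF) hquad
  rw [hfield, Nat.totient_prime_pow_succ Nat.prime_two] at h5
  have h6 : 2 ^ s ≤ 2 ^ (t + 1) := by
    rw [pow_succ']
    simpa using h5
  have h7 := (Nat.pow_le_pow_iff_right (by norm_num : 1 < 2)).mp h6
  omega

/-- All normal abelian subgroups are cyclic when there is no normal subgroup `E_{p^2}`. -/
theorem normal_abelian_cyclic {P : Type u} [Group P] [Finite P] {p : ℕ} [hp : Fact p.Prime]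
    (hP : IsPGroup p P)
    (hno : ¬ ∃ A : Subgroup P, A.Normal ∧ (∀ x ∈ A, x ^ p = 1) ∧ Nat.card A = p ^ 2)
    (B : Subgroup P) (hBn : B.Normal) (hBc : IsMulCommutative B) : IsCyclic B := by
  classical
  by_contra hnc
  apply hno
  have hBp : IsPGroup p B := hP.to_subgroup B
  have hBcomm : ∀ x y : B, x * y = y * x := fun x y => hBc.is_comm.comm x y
  obtain ⟨A', -, hA'e, hA'⟩ :=
    Cfsg.Agent.Lib.PGroups.NormalRankTwo.exists_card_sq_of_comm hBp hBcomm hnc
  have hcommB : ∀ x ∈ B, ∀ y ∈ B, x * y = y * x := fun x hx y hy =>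
    congrArg Subtype.val (hBcomm ⟨x, hx⟩ ⟨y, hy⟩)
  let Ω : Subgroup P :=
    { carrier := {x | x ∈ B ∧ x ^ p = 1}
      one_mem' := ⟨B.one_mem, one_pow _⟩
      mul_mem' := by
        rintro x y ⟨hx, hxp⟩ ⟨hy, hyp⟩
        refine ⟨B.mul_mem hx hy, ?_⟩
        have : Commute x y := hcommB x hx y hy
        rw [this.mul_pow, hxp, hyp, one_mul]
      inv_mem' := by
        rintro x ⟨hx, hxp⟩
        exact ⟨B.inv_mem hx, by rw [inv_pow, hxp, inv_one]⟩ }
  have hΩn : Ω.Normal := by
    refine ⟨fun x hx g => ⟨hBn.conj_mem x hx.1 g, ?_⟩⟩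
    rw [conj_pow, hx.2]
    group
  have hle : A'.map B.subtype ≤ Ω := by
    rintro _ ⟨x, hx, rfl⟩
    refine ⟨x.2, ?_⟩
    have := hA'e x hx
    exact congrArg Subtype.val this
  have hdvd : p ^ 2 ∣ Nat.card Ω := by
    have h1 := Subgroup.card_dvd_of_le hle
    have h2 : Nat.card (A'.map B.subtype) = Nat.card A' :=
      Nat.card_congr (A'.equivMapOfInjective B.subtype B.subtype_injective).symm.toEquiv
    rwa [h2, hA'] at h1
  obtain ⟨A, hAn, hAle, hAc⟩ :=
    Cfsg.Agent.Lib.PGroups.NormalRankTwo.exists_normal_le_card_eq hP Ω 2 hdvd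
  exact ⟨A, hAn, fun x hx => (hAle hx).2, hAc⟩

/-- **Roquette's bound**. -/
theorem main_bound (p : ℕ) [hp : Fact p.Prime] : ∀ (a : ℕ) (P : Type u) [Group P] [Fintype P]
    (χ : P → ℂ) (f t : ℕ), Nat.card P = p ^ a → IsIrrCharacter P χ →
    (∀ g, χ g = χ 1 → g = 1) → χ 1 = f → Module.finrank ℚ (Fld χ) = (p - 1) * p ^ t →
    (p - 1) * a ≤ (f - 1) + (p - 1) * (t + 1) * f := by
  intro a
  induction a using Nat.strong_induction_on with
  | _ a ih =>
    intro P _ _ χ f t hP hχ hfaith hf hfield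
    have hpp : p.Prime := hp.out
    by_cases hA : ∃ A : Subgroup P, A.Normal ∧ (∀ x ∈ A, x ^ p = 1) ∧ Nat.card A = p ^ 2
    · obtain ⟨A, hAn, hAe, hAc⟩ := hA
      obtain ⟨X, _, _, φ, a', f', hX, ha', hale, hφ, hφf, hφ1, hχ1, hfld⟩ :=
        reduce_data hP hχ hfaith A hAn hAe hAc
      have h1 := ih a' ha' X φ f' t hX hφ hφf hφ1 (by rw [hfld]; exact hfield)
      have hff : f = p * f' := by
        have h2 : (f : ℂ) = ((p * f' : ℕ) : ℂ) := by
          rw [← hf, hχ1]
          push_cast
          ring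
        exact_mod_cast h2
      have hf'pos : 0 < f' := by
        rcases Nat.eq_zero_or_pos f' with h | h
        · exfalso
          rw [h] at hφ1
          exact irr_one_ne_zero hφ (by simpa using hφ1)
        · exact h
      obtain ⟨q, rfl⟩ : ∃ q, p = q + 1 := ⟨p - 1, by have := hpp.pos; omega⟩
      obtain ⟨g, rfl⟩ : ∃ g, f' = g + 1 := ⟨f' - 1, by omega⟩
      subst hff
      simp only [Nat.add_sub_cancel] at h1 ⊢
      have h2 : q * a ≤ q * (1 + (q + 1) * a') := Nat.mul_le_mul_left q hale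
      have h3 : (q + 1) * (q * a') ≤ (q + 1) * (g + q * (t + 1) * (g + 1)) :=
        Nat.mul_le_mul_left _ h1
      have h4 : (q + 1) * (g + 1) - 1 = (q + 1) * g + q := by
        have : (q + 1) * (g + 1) = (q + 1) * g + q + 1 := by ring
        omega
      rw [h4]
      nlinarith
    · by_cases hc : IsCyclic P
      · obtain ⟨h1, h2⟩ := cyclic_case hpp hP hχ hfaith hc hfield
        have hf1 : f = 1 := by
          have : (f : ℂ) = 1 := by rw [← hf, h1]
          exact_mod_cast this
        subst hf1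
        simp only [Nat.sub_self, mul_one, zero_add]
        exact Nat.mul_le_mul_left _ h2
      · have hPp : IsPGroup p P := IsPGroup.of_card hP
        have hn := normal_abelian_cyclic hPp hA
        have hp2 : p = 2 := Cfsg.Agent.Lib.PGroups.CyclicNormal.eq_two_of_not_isCyclic hPp hn hc
        subst hp2
        have hPp' : IsPGroup 2 P := hPp
        obtain ⟨n, x, y, hn2, hxo, hcard, hy, hidx, hcases⟩ :=
          Cfsg.Agent.Lib.PGroups.CyclicNormal.classify hPp' hn hc
        have hcase : y * x * y⁻¹ = x⁻¹ ∨ y * x * y⁻¹ = x ^ (2 ^ (n - 1) - 1) := by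
          rcases hcases with h | h | h
          · exact Or.inl h.2
          · exact Or.inl h.2.2
          · exact Or.inr h.2.2
        have h1 := semi_case hχ hfaith hn2 hxo hidx hy hcase (by simpa using hfield)
        have haeq : a = n + 1 := by
          rw [hP] at hcard
          exact Nat.pow_right_injective (le_refl 2) hcard
        have hfne : f ≠ 1 := by
          rintro rfl
          exact hc (isCyclic_of_faithful_deg_one (isCharacter_of_isIrrCharacter hχ)
            (by simpa using hf) hfaith)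
        have hfpos : f ≠ 0 := by
          rintro rfl
          exact irr_one_ne_zero hχ (by simpa using hf)
        have hf2 : 2 ≤ f := by omega
        obtain ⟨g, rfl⟩ : ∃ g, f = g + 2 := ⟨f - 2, by omega⟩
        subst haeq
        simp only [show 2 - 1 = 1 from rfl, one_mul]
        have h2 : g + 2 - 1 = g + 1 := by omega
        rw [h2]
        nlinarith

end Cfsg.Agent.Lib.CharDeep.Roquette
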