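import Cfsg.Agent.Lib.Char.CliffordCorr
import Cfsg.Agent.Lib.Char.Clifford
import Cfsg.Agent.Lib.Char.Degree
import Cfsg.Agent.Lib.Char.Linear
import Cfsg.Agent.Lib.Char.Central
import Cfsg.Agent.Lib.Char.Induced
import Cfsg.Agent.Lib.Char.Conj
import Cfsg.Agent.Lib.PGroups.NormalRankTwo
import Cfsg.Agent.Lib.PGroups.CyclicNormal

/-!
# Roquette's reduction step

If the `p`-group `P` has a faithful irreducible character `χ` and a normal elementary abelian
subgroup `A` of order `p ^ 2`, then `χ` is induced from a normal subgroup of index `p`, from a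
character with values in the field of values of `χ`.
-/

set_option autoImplicit false
set_option linter.unusedSectionVars false

namespace Cfsg.Agent.Lib.CharDeep.Roquette

open Subgroup Cfsg Cfsg.Agent.Lib.Char.Basic Cfsg.Agent.Lib.Char.Ortho Cfsg.Agent.Lib.Char.Complete
  Cfsg.Agent.Lib.Char.Linear Cfsg.Agent.Lib.Char.Degree Cfsg.Agent.Lib.Char.Conj
  Cfsg.Agent.Lib.Char.Induced Cfsg.Agent.Lib.Char.Clifford Cfsg.Agent.Lib.Char.CliffordCorr
open scoped ComplexConjugate

universe u

variable {P : Type u} [Group P] [Fintype P] {p : ℕ} [hp : Fact p.Prime]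

/-- The field of values of a function. -/
noncomputable abbrev Fld {X : Type*} (χ : X → ℂ) : IntermediateField ℚ ℂ :=
  IntermediateField.adjoin ℚ (Set.range χ)

theorem mem_Fld {X : Type*} (χ : X → ℂ) (x : X) : χ x ∈ Fld χ :=
  IntermediateField.subset_adjoin _ _ ⟨x, rfl⟩

/-- The character-theoretic part: the value of `χ` on an element on which all conjugates of the
constituent `λ` agree. -/
theorem value_of_invariant {A : Subgroup P} (hAn : A.Normal) [Fintype A] {χ : P → ℂ}
    (hχ : IsIrrCharacter P χ) {lam : A → ℂ} (hlam : IsIrrCharacter A lam)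
    (hlam1 : lam 1 = 1) (hcon : classInner (fun a : A => χ a) lam ≠ 0) (a : A)
    (ha : ∀ g : P, conjOn hAn g lam a = lam a) : χ a = χ 1 * lam a := by
  classical
  have h := clifford_restrict hAn hχ hlam hcon
  have h1 := congrFun h a
  have h2 := congrFun h 1
  simp only [Pi.smul_apply, Finset.sum_apply, smul_eq_mul] at h1 h2
  have h3 : ∀ ψ ∈ orbitFinset hAn lam, ψ a = lam a := by
    intro ψ hψ
    obtain ⟨g, rfl⟩ := (mem_orbitFinset hAn lam ψ).mp hψ
    exact ha g
  have h4 : ∀ ψ ∈ orbitFinset hAn lam, ψ 1 = 1 := by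
    intro ψ hψ
    obtain ⟨g, rfl⟩ := (mem_orbitFinset hAn lam ψ).mp hψ
    simp only [conjOn_apply]
    have : (⟨g * ((1 : A) : P) * g⁻¹, hAn.conj_mem _ (1 : A).2 g⟩ : A) = 1 := by
      apply Subtype.ext
      simp
    rw [this, hlam1]
  rw [Finset.sum_congr rfl h3] at h1
  rw [Finset.sum_congr rfl h4] at h2
  simp only [Finset.sum_const, nsmul_eq_mul, mul_one] at h1 h2
  have h5 : χ ((1 : A) : P) = χ 1 := by simp
  rw [← h5, h2, h1]
  ring

/-- The reduction step. -/
theorem step_data (hP : IsPGroup p P) {χ : P → ℂ} (hχ : IsIrrCharacter P χ)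
    (hfaith : ∀ g, χ g = χ 1 → g = 1) (A : Subgroup P) (hAn : A.Normal)
    (hAexp : ∀ a ∈ A, a ^ p = 1) (hAcard : Nat.card A = p ^ 2) :
    ∃ (H : Subgroup P) (_ : Fintype H) (θ : H → ℂ), H.Normal ∧ H.index = p ∧
      IsIrrCharacter H θ ∧ indFun H θ = χ ∧ ∀ h, θ h ∈ Fld χ := by
  classical
  have hpp : p.Prime := hp.out
  letI instA : Fintype A := Fintype.ofFinite A
  haveI hAcomm : IsMulCommutative A := IsPGroup.isMulCommutative_of_card_eq_prime_sq hAcard
  have hcommA : ∀ a b : A, a * b = b * a := fun a b => hAcomm.is_comm.comm a b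
  have hχc := isCharacter_of_isIrrCharacter hχ
  have hχ1 : χ 1 ≠ 0 := irr_one_ne_zero hχ
  have hres : IsClassFunction A (fun a : A => χ a) :=
    isClassFunction_of_isCharacter (isCharacter_restrict A hχc)
  have hresne : (fun a : A => χ a) ≠ 0 := by
    intro h
    have := congrFun h 1
    simp only [OneMemClass.coe_one, Pi.zero_apply] at this
    exact hχ1 this
  obtain ⟨lam, hlam, hcon⟩ := exists_irr_constituent hres hresne
  have hlam1 : lam 1 = 1 := isIrr_deg_one_of_comm hcommA hlam
  have hlamc := isCharacter_of_isIrrCharacter hlam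
  obtain ⟨l, hl⟩ := exists_hom_of_deg_one hlamc hlam1
  have hlv : ∀ a, lam a = (l a : ℂ) := fun a => congrFun hl a
  let H : Subgroup P := inertia hAn lam
  have hmemH : ∀ g, g ∈ H ↔ conjOn hAn g lam = lam := fun g => Iff.rfl
  -- `A` is not cyclic
  have hAnc : ¬ IsCyclic A := by
    intro hc
    obtain ⟨g, hg⟩ := hc.exists_generator
    have h1 : orderOf g = p ^ 2 := by
      rw [← hAcard]
      exact orderOf_eq_card_of_forall_mem_zpowers hg
    have h2 : g ^ p = 1 := Subtype.ext (hAexp g g.2)
    have h3 := orderOf_dvd_of_pow_eq_one h2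
    rw [h1] at h3
    have h4 := Nat.le_of_dvd hpp.pos h3
    nlinarith [hpp.two_le]
  -- `H` is proper
  have hHtop : H ≠ ⊤ := by
    intro hH
    have hinv : ∀ g : P, conjOn hAn g lam = lam := fun g => (hmemH g).mp (hH ▸ mem_top g)
    have hv := fun a : A => value_of_invariant hAn hχ hlam hlam1 hcon a
      (fun g => congrFun (hinv g) a)
    apply hAnc
    apply isCyclic_of_subgroup_isDomain ((Units.coeHom ℂ).comp l)
    intro a b hab
    have h1 : (l (a * b⁻¹) : ℂ) = 1 := by
      have h2 : ((Units.coeHom ℂ).comp l) a = ((Units.coeHom ℂ).comp l) b := hab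
      have h3 : l a = l b := Units.ext h2
      rw [map_mul, map_inv, h3, mul_inv_cancel]
      simp
    have h2 := hv (a * b⁻¹)
    rw [hlv, h1, mul_one] at h2
    have h3 := hfaith _ h2
    have h4 : a * b⁻¹ = 1 := Subtype.ext h3
    exact mul_inv_eq_one.mp h4
  -- `A` is not central
  obtain ⟨a₀, ha₀A, ha₀Z⟩ : ∃ a₀ ∈ A, a₀ ∉ center P := by
    by_contra hcon2
    push Not at hcon2
    apply hHtop
    rw [eq_top_iff]
    intro g _
    rw [hmemH]
    funext a
    simp only [conjOn_apply]
    congr 1
    apply Subtype.ext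
    have h1 := Subgroup.mem_center_iff.mp (hcon2 a a.2) g
    change g * a * g⁻¹ = a
    rw [h1]
    group
  -- a central element of order `p` in `A`
  have hAbot : A ≠ ⊥ := by
    rintro rfl
    simp only [Subgroup.card_bot] at hAcard
    have := Nat.one_lt_pow (n := 2) (by norm_num) hpp.one_lt
    omega
  obtain ⟨z₀, hz₀A, hz₀Z, hz₀o⟩ :=
    Cfsg.Agent.Lib.PGroups.Basic.exists_central_orderOf_eq hP A hAbot
  -- the centralizer of `a₀`
  let D : Subgroup P := centralizer ({a₀} : Set P)
  have hDindex : D.index = p := by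
    have h1 := card_isConj_mul_card_centralizer a₀
    have h2 : D.index = Nat.card {x : P // IsConj x a₀} := by
      have h3 := D.index_mul_card
      have h4 : Nat.card D ≠ 0 := Nat.card_pos.ne'
      exact Nat.eq_of_mul_eq_mul_right (Nat.pos_of_ne_zero h4) (h3.trans h1.symm)
    -- the bound
    have hbound : Nat.card {x : P // IsConj x a₀} + p ≤ p ^ 2 := by
      rw [← hAcard, ← hz₀o, ← Nat.card_zpowers z₀, ← Nat.card_sum]
      let f : {x : P // IsConj x a₀} ⊕ zpowers z₀ → A := fun u =>
        match u with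
        | Sum.inl x => ⟨x.1, by
            obtain ⟨c, hc⟩ := isConj_iff.mp x.2
            have h7 : (x : P) = c⁻¹ * a₀ * c := by
              calc (x : P) = c⁻¹ * (c * x * c⁻¹) * c := by group
                _ = c⁻¹ * a₀ * c := by rw [hc]
            rw [h7]
            have := hAn.conj_mem a₀ ha₀A (c⁻¹)
            simpa using this⟩
        | Sum.inr z => ⟨z.1, (zpowers_le.mpr hz₀A) z.2⟩
      apply Nat.card_le_card_of_injective f
      have hzcent : ∀ z : zpowers z₀, (z : P) ∈ center P := fun z =>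
        (zpowers_le.mpr hz₀Z) z.2
      have hxnot : ∀ x : {x : P // IsConj x a₀}, (x : P) ∉ center P := by
        intro x hx
        apply ha₀Z
        obtain ⟨c, hc⟩ := isConj_iff.mp x.2
        rw [← hc]
        exact (inferInstance : (center P).Normal).conj_mem _ hx c
      rintro (x | z) (x' | z') hff
      · have : (x : P) = x' := congrArg (fun w : A => (w : P)) hff
        rw [Subtype.ext this]
      · exfalso
        have h5 : (x : P) = z' := congrArg (fun w : A => (w : P)) hff
        exact hxnot x (h5 ▸ hzcent z')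
      · exfalso
        have h5 : (z : P) = x' := congrArg (fun w : A => (w : P)) hff
        exact hxnot x' (h5 ▸ hzcent z)
      · have : (z : P) = z' := congrArg (fun w : A => (w : P)) hff
        rw [Subtype.ext this]
    -- `D.index` is a power of `p`
    have hcardP := IsPGroup.iff_card.mp hP
    obtain ⟨e, he⟩ := hcardP
    have hdvd : D.index ∣ p ^ e := by
      rw [← he]
      exact Subgroup.index_dvd_card D
    obtain ⟨j, -, hj⟩ := (Nat.dvd_prime_pow hpp).mp hdvd
    have hj0 : j ≠ 0 := by
      rintro rfl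
      apply ha₀Z
      rw [pow_zero, Subgroup.index_eq_one] at hj
      rw [Subgroup.mem_center_iff]
      intro g
      have h5 : g ∈ D := hj ▸ mem_top g
      exact (Subgroup.mem_centralizer_iff.mp h5 a₀ rfl).symm ▸ rfl
    have hj1 : j < 2 := by
      by_contra hge
      have h5 : p ^ 2 ≤ p ^ j := Nat.pow_le_pow_right hpp.pos (by omega)
      rw [h2] at hj
      rw [hj] at hbound
      have := hpp.pos
      omega
    have hj2 : j = 1 := by omega
    rw [hj, hj2, pow_one]
  -- `D` is the centralizer of `A`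
  have hDle : D ≤ centralizer (A : Set P) := by
    intro g hg
    -- `A` is generated by `a₀` and `z₀`
    have hgen : zpowers a₀ ⊔ zpowers z₀ = A := by
      apply Subgroup.eq_of_le_of_card_ge
      · exact sup_le (zpowers_le.mpr ha₀A) (zpowers_le.mpr hz₀A)
      · set E := zpowers a₀ ⊔ zpowers z₀ with hE
        have hEle : E ≤ A := sup_le (zpowers_le.mpr ha₀A) (zpowers_le.mpr hz₀A)
        have hlt : zpowers z₀ < E := by
          refine lt_of_le_of_ne le_sup_right ?_
          intro h
          have h5 : a₀ ∈ zpowers z₀ := by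
            rw [h]
            exact (le_sup_left : zpowers a₀ ≤ E) (mem_zpowers a₀)
          exact ha₀Z ((zpowers_le.mpr hz₀Z) h5)
        have h5 : Nat.card (zpowers z₀) < Nat.card E := by
          have h51 := Subgroup.card_dvd_of_le hlt.le
          have h52 := Nat.le_of_dvd Nat.card_pos h51
          refine lt_of_le_of_ne h52 (fun h53 => hlt.ne ?_)
          exact Subgroup.eq_of_le_of_card_ge hlt.le h53.ge
        rw [Nat.card_zpowers, hz₀o] at h5
        have h6 : Nat.card E ∣ p ^ 2 := by
          rw [← hAcard]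
          exact Subgroup.card_dvd_of_le hEle
        obtain ⟨j, hj2, hj⟩ := (Nat.dvd_prime_pow hpp).mp h6
        have hj3 : j = 2 := by
          by_contra hne
          have h7 : j ≤ 1 := by omega
          have h8 := Nat.pow_le_pow_right hpp.pos h7
          rw [pow_one, ← hj] at h8
          omega
        rw [hAcard, hj, hj3]
    rw [Subgroup.mem_centralizer_iff]
    intro a ha
    have hle : zpowers a₀ ⊔ zpowers z₀ ≤ centralizer ({g} : Set P) := by
      apply sup_le
      · rw [zpowers_le, Subgroup.mem_centralizer_iff]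
        intro w hw
        rw [Set.mem_singleton_iff] at hw
        rw [hw]
        exact (Subgroup.mem_centralizer_iff.mp hg a₀ rfl).symm
      · rw [zpowers_le, Subgroup.mem_centralizer_iff]
        intro w hw
        rw [Set.mem_singleton_iff] at hw
        rw [hw]
        exact (Subgroup.mem_center_iff.mp hz₀Z g)
    rw [hgen] at hle
    exact (Subgroup.mem_centralizer_iff.mp (hle (show a ∈ A from ha)) g rfl).symm
  let C : Subgroup P := centralizer (A : Set P)
  have hCn : C.Normal := inferInstance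
  have hCH : C ≤ H := by
    intro g hg
    rw [hmemH]
    funext a
    simp only [conjOn_apply]
    congr 1
    apply Subtype.ext
    have h1 := Subgroup.mem_centralizer_iff.mp hg a a.2
    change g * a * g⁻¹ = a
    rw [← h1]
    group
  have hCindex : C.index = p := by
    have hCD : C ≤ D := by
      intro g hg
      rw [Subgroup.mem_centralizer_iff]
      intro w hw
      rw [Set.mem_singleton_iff] at hw
      rw [hw]
      exact Subgroup.mem_centralizer_iff.mp hg a₀ ha₀A
    rw [le_antisymm hCD hDle, hDindex]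
  have hHindex : H.index = p := by
    have h1 := Subgroup.relIndex_mul_index hCH
    rw [hCindex] at h1
    have h2 : H.index ∣ p := ⟨_, by rw [mul_comm]; exact h1.symm⟩
    rcases (Nat.dvd_prime hpp).mp h2 with h3 | h3
    · exact absurd (Subgroup.index_eq_one.mp h3) hHtop
    · exact h3
  have hHC : H = C := by
    have h1 := Subgroup.relIndex_mul_index hCH
    rw [hCindex, hHindex] at h1
    have h2 : C.relIndex H = 1 := by
      have := hpp.pos
      nlinarith
    exact le_antisymm (Subgroup.relIndex_eq_one.mp h2) hCH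
  have hHn : H.Normal := hHC ▸ hCn
  have hAH : A ≤ H := le_inertia hAn (isClassFunction_of_isCharacter hlamc)
  letI instH : Fintype H := Fintype.ofFinite H
  obtain ⟨θ, hθ, hθind, hθcon⟩ := exists_irr_inertia_of_lies_over hAn hAH hlam rfl hχ hcon
  have hθc := isCharacter_of_isIrrCharacter hθ
  have hθ1 : θ 1 ≠ 0 := irr_one_ne_zero hθ
  have hθres : res hAH θ = classInner (res hAH θ) lam • lam := by
    refine restrict_eq_smul_of_invariant hAn hAH hlam (fun t ht => ht) hθ ?_
    rw [hθcon]
    exact hcon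
  set e := classInner (res hAH θ) lam with he
  have hθA : ∀ a : A, θ ⟨a, hAH a.2⟩ = e * lam a := fun a => congrFun hθres a
  have heθ : e = θ 1 := by
    have h1 := hθA 1
    rw [hlam1, mul_one] at h1
    rw [← h1]
    congr 1
  -- scalars
  have hscalar : ∀ (a : A) (h : H), θ (⟨a, hAH a.2⟩ * h) = lam a * θ h := by
    intro a h
    obtain ⟨n, ρ, hρ, hρθ⟩ := hθ
    haveI := hρ
    have hcent : (⟨a, hAH a.2⟩ : H) ∈ center H := by
      rw [Subgroup.mem_center_iff]
      intro g
      apply Subtype.ext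
      have hg : (g : P) ∈ C := hHC ▸ g.2
      exact (Subgroup.mem_centralizer_iff.mp hg a a.2).symm
    obtain ⟨ω, hω⟩ := Cfsg.Agent.Lib.Char.Central.center_acts_scalar ρ _ hcent
    have h1 : ∀ x : H, θ (⟨a, hAH a.2⟩ * x) = ω * θ x := by
      intro x
      rw [← hρθ]
      simp only [Representation.character, map_mul, hω, smul_mul_assoc, one_mul, map_smul, smul_eq_mul]
    have h2 := h1 1
    rw [mul_one, hθA, heθ, mul_comm] at h2
    have h3 : ω = lam a := (mul_right_cancel₀ hθ1 h2).symm
    rw [h1, h3]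
  -- the formula
  have hform : ∀ h : H, ∑ a : A, conj (lam a) * χ ((a : P) * h) = (Nat.card A : ℂ) * θ h := by
    intro h
    have hcardH : (Nat.card H : ℂ) ≠ 0 := Nat.cast_ne_zero.mpr Nat.card_pos.ne'
    have hcardA : (Nat.card A : ℂ) ≠ 0 := Nat.cast_ne_zero.mpr Nat.card_pos.ne'
    -- expanding
    have hexp : ∀ a : A, χ ((a : P) * h) =
        (Nat.card H : ℂ)⁻¹ * ∑ x : P, conjOn hAn x⁻¹ lam a * conjOn hHn x⁻¹ θ h := by
      intro a
      rw [← hθind, indFun_apply]
      congr 1
      refine Finset.sum_congr rfl (fun x _ => ?_)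
      have hmem : x⁻¹ * ((a : P) * h) * x ∈ H := by
        have := hHn.conj_mem _ (H.mul_mem (hAH a.2) h.2) x⁻¹
        simpa using this
      rw [extendByZero_of_mem H θ hmem]
      simp only [conjOn_apply]
      have h1 : (⟨x⁻¹ * ((a : P) * h) * x, hmem⟩ : H) =
          ⟨(⟨x⁻¹ * a * x⁻¹⁻¹, hAn.conj_mem _ a.2 x⁻¹⟩ : A), hAH (hAn.conj_mem _ a.2 x⁻¹)⟩ *
            ⟨x⁻¹ * h * x⁻¹⁻¹, hHn.conj_mem _ h.2 x⁻¹⟩ := by
        apply Subtype.ext
        simp only [Subgroup.coe_mul, inv_inv]
        group
      rw [h1, hscalar]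
    simp only [hexp]
    -- orthogonality
    have horth : ∀ x : P, ∑ a : A, conj (lam a) * conjOn hAn x⁻¹ lam a =
        if x ∈ H then (Nat.card A : ℂ) else 0 := by
      intro x
      have hirr : IsIrrCharacter A (conjOn hAn x⁻¹ lam) :=
        isIrrCharacter_conjOn hAn x⁻¹ hlam
      have h1 := classInner_irr hirr hlam
      rw [classInner_def] at h1
      have h2 : conjOn hAn x⁻¹ lam = lam ↔ x ∈ H := by
        constructor
        · intro h3
          have h4 : x⁻¹ ∈ H := h3
          simpa using H.inv_mem h4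
        · intro h3
          exact H.inv_mem h3
      have h3 : ∑ a : A, conj (lam a) * conjOn hAn x⁻¹ lam a =
          ∑ a : A, conjOn hAn x⁻¹ lam a * conj (lam a) :=
        Finset.sum_congr rfl (fun a _ => mul_comm _ _)
      rw [h3]
      by_cases hx : x ∈ H
      · rw [if_pos (h2.mpr hx)] at h1
        rw [if_pos hx]
        field_simp at h1
        exact h1
      · rw [if_neg (fun h4 => hx (h2.mp h4))] at h1
        rw [if_neg hx]
        have h5 : (Nat.card A : ℂ)⁻¹ ≠ 0 := inv_ne_zero hcardA
        exact (mul_eq_zero.mp h1).resolve_left h5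
    -- swapping the sums
    have hswap : ∑ a : A, conj (lam a) * ((Nat.card H : ℂ)⁻¹ *
        ∑ x : P, conjOn hAn x⁻¹ lam a * conjOn hHn x⁻¹ θ h) =
        (Nat.card H : ℂ)⁻¹ * ∑ x : P, (∑ a : A, conj (lam a) * conjOn hAn x⁻¹ lam a) *
          conjOn hHn x⁻¹ θ h := by
      simp only [Finset.mul_sum, Finset.sum_mul]
      rw [Finset.sum_comm]
      refine Finset.sum_congr rfl (fun x _ => Finset.sum_congr rfl (fun a _ => ?_))
      ring
    rw [hswap]
    simp only [horth]
    have hsum : ∑ x : P, (if x ∈ H then (Nat.card A : ℂ) else 0) * conjOn hHn x⁻¹ θ h =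
        (Nat.card H : ℂ) * ((Nat.card A : ℂ) * θ h) := by
      have h1 : ∀ x : P, (if x ∈ H then (Nat.card A : ℂ) else 0) * conjOn hHn x⁻¹ θ h =
          if x ∈ H then (Nat.card A : ℂ) * θ h else 0 := by
        intro x
        by_cases hx : x ∈ H
        · rw [if_pos hx, if_pos hx]
          congr 1
          rw [conjOn_apply]
          have hcl := isClassFunction_of_isCharacter hθc
          have h2 : (⟨x⁻¹ * h * x⁻¹⁻¹, hHn.conj_mem _ h.2 x⁻¹⟩ : H) =
              (⟨x⁻¹, H.inv_mem hx⟩ : H) * h * (⟨x⁻¹, H.inv_mem hx⟩ : H)⁻¹ := by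
            apply Subtype.ext
            simp
          rw [h2]
          exact hcl _ _
        · rw [if_neg hx, if_neg hx, zero_mul]
      simp only [h1]
      rw [← Finset.sum_filter, Finset.sum_const, nsmul_eq_mul]
      congr 1
      rw [Nat.card_eq_fintype_card, Fintype.card_subtype]
    rw [hsum, ← mul_assoc, inv_mul_cancel₀ hcardH, one_mul]
  have hA0 : (Nat.card A : ℂ) ≠ 0 := Nat.cast_ne_zero.mpr Nat.card_pos.ne'
  -- the central element gives a primitive `p`-th root of unity in the field of values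
  have hz₀inv : ∀ g : P, conjOn hAn g lam ⟨z₀, hz₀A⟩ = lam ⟨z₀, hz₀A⟩ := by
    intro g
    rw [conjOn_apply]
    congr 1
    apply Subtype.ext
    change g * z₀ * g⁻¹ = z₀
    rw [Subgroup.mem_center_iff.mp hz₀Z g]
    group
  have hχz₀ : χ z₀ = χ 1 * lam ⟨z₀, hz₀A⟩ :=
    value_of_invariant hAn hχ hlam hlam1 hcon ⟨z₀, hz₀A⟩ hz₀inv
  have hηF : lam ⟨z₀, hz₀A⟩ ∈ Fld χ := by
    have h1 : lam ⟨z₀, hz₀A⟩ = χ z₀ / χ 1 := by
      rw [hχz₀]
      field_simp
    rw [h1]
    exact div_mem (mem_Fld χ _) (mem_Fld χ _)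
  have hηne : lam ⟨z₀, hz₀A⟩ ≠ 1 := by
    intro h
    rw [h, mul_one] at hχz₀
    have h1 := hfaith _ hχz₀
    rw [h1, orderOf_one] at hz₀o
    exact hpp.one_lt.ne hz₀o
  have hlampow : ∀ a : A, lam a ^ p = 1 := by
    intro a
    rw [hlv, ← Units.val_pow_eq_pow_val, ← map_pow]
    have h1 : a ^ p = 1 := Subtype.ext (hAexp a a.2)
    rw [h1, map_one, Units.val_one]
  have hord : orderOf (lam ⟨z₀, hz₀A⟩) = p := orderOf_eq_prime (hlampow _) hηne
  have hprim : IsPrimitiveRoot (lam ⟨z₀, hz₀A⟩) p := hord ▸ IsPrimitiveRoot.orderOf _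
  have hlamF : ∀ a : A, lam a ∈ Fld χ := by
    intro a
    obtain ⟨i, -, hi⟩ := hprim.eq_pow_of_pow_eq_one (hlampow a)
    rw [← hi]
    exact pow_mem hηF i
  have hconjF : ∀ a : A, conj (lam a) ∈ Fld χ := by
    intro a
    rw [← char_inv_eq_conj hlamc a]
    exact hlamF _
  refine ⟨H, instH, θ, hHn, hHindex, hθ, hθind, fun h => ?_⟩
  have h1 : θ h = (Nat.card A : ℂ)⁻¹ * ∑ a : A, conj (lam a) * χ ((a : P) * h) := by
    rw [hform, ← mul_assoc, inv_mul_cancel₀ hA0, one_mul]
  rw [h1]
  apply mul_mem
  · exact inv_mem (natCast_mem _ _)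
  · exact sum_mem (fun a _ => mul_mem (hconjF a) (mem_Fld χ _))

end Cfsg.Agent.Lib.CharDeep.Roquette
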